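import Cfsg.Agent.H63.AO.Mono

/-!
# Isometries centralizing an irreducible `p`-group, `p` odd

`exists_isom` : `P` a nontrivial `p`-group of isometries (`p` odd, invertible), irreducible, of a nondegenerate symmetric
form over a finite field of odd characteristic: some isometry `z` centralizes `P`, has determinant one, and
`det (1 + z)` is not a square.
-/

set_option autoImplicit false

namespace Cfsg.Agent.H63.AO.Par

open Module

universe u v

/-- Elements fixed by an automorphism of order two have square norms. -/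
theorem isSquare_norm_of_fixed {F E : Type*} [Field F] [Field E] [Finite F] [Finite E] [Algebra F E]
    (σ : E ≃ₐ[F] E) (hσ : ∀ x, σ (σ x) = x) (h1 : σ ≠ 1) {t : E} (ht : σ t = t) :
    IsSquare (Algebra.norm F t) := by
  classical
  haveI : FiniteDimensional F E := Module.Finite.of_finite
  set H : Subgroup (E ≃ₐ[F] E) := Subgroup.zpowers σ with hH
  have hord : orderOf σ = 2 := by
    refine orderOf_eq_prime ?_ h1
    ext x
    rw [pow_two]
    exact hσ x
  have hcard : Nat.card H = 2 := by rw [hH, Nat.card_zpowers, hord]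
  set K := IntermediateField.fixedField H with hK
  have hfr : finrank K E = 2 := by rw [hK, IntermediateField.finrank_fixedField_eq_card, hcard]
  have htK : t ∈ K := by
    rintro ⟨g, k, rfl⟩
    have : ∀ k : ℤ, (σ ^ k) t = t := by
      intro k
      have h2 : σ ∈ MulAction.stabilizer (E ≃ₐ[F] E) t := ht
      exact Subgroup.zpow_mem _ h2 k
    exact this k
  have h3 := Algebra.norm_norm (R := F) (S := K) (A := E) (a := t)
  have h4 : Algebra.norm K t = (⟨t, htK⟩ : K) ^ 2 := by
    have := Algebra.norm_algebraMap (S := E) (⟨t, htK⟩ : K)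
    rw [hfr] at this
    exact this
  rw [h4, map_pow] at h3
  rw [← h3]
  exact ⟨_, pow_two _⟩

/-- The field lemma. -/
theorem exists_norm_one {F E : Type*} [Field F] [Field E] [Finite F] [Finite E] [Algebra F E]
    (h2 : (2 : F) ≠ 0) (σ : E ≃ₐ[F] E) (hσ : ∀ x, σ (σ x) = x) (z : E) (hz : z * σ z = 1)
    (hz4 : z ^ 4 ≠ 1) :
    ∃ l : E, l * σ l = 1 ∧ Algebra.norm F l = 1 ∧ 1 + l ≠ 0 ∧ ¬ IsSquare (Algebra.norm F (1 + l)) := by
  classical
  haveI : FiniteDimensional F E := Module.Finite.of_finite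
  have hz0 : z ≠ 0 := fun h => by rw [h, zero_mul] at hz; exact zero_ne_one hz
  have hσz : σ z = z⁻¹ := eq_inv_of_mul_eq_one_right hz
  have hσ1 : σ ≠ 1 := by
    rintro rfl
    apply hz4
    have : z * z = 1 := hz
    calc z ^ 4 = (z * z) * (z * z) := by ring
      _ = 1 := by rw [this, one_mul]
  have hchar : ringChar F ≠ 2 := by
    intro h
    apply h2
    have := ringChar.Nat.cast_ringChar (R := F)
    rw [h] at this
    exact_mod_cast this
  obtain ⟨a, ha⟩ := FiniteField.exists_nonsquare hchar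
  obtain ⟨m, hm⟩ := FiniteField.norm_surjective F E a
  obtain ⟨μ, hμ, ht⟩ : ∃ μ : E, ¬ IsSquare (Algebra.norm F μ) ∧ μ + σ μ ≠ 0 := by
    by_cases h : m + σ m = 0
    · refine ⟨m * z ^ 2, ?_, ?_⟩
      · rw [map_mul, map_pow, hm]
        rintro ⟨r, hr⟩
        have hnz : Algebra.norm F z ≠ 0 := fun h => hz0 (Algebra.norm_eq_zero_iff.1 h)
        apply ha
        refine ⟨r / Algebra.norm F z, ?_⟩
        field_simp
        rw [hr]; ring
      · rw [map_mul, map_pow, hσz, eq_neg_of_add_eq_zero_right h]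
        intro h3
        have hm0 : m ≠ 0 := by
          rintro rfl
          rw [Algebra.norm_zero] at hm
          exact ha ⟨0, by rw [← hm, mul_zero]⟩
        have h4 : m * (z ^ 2 - (z⁻¹) ^ 2) = 0 := by rw [← h3]; ring
        have h5 := (mul_eq_zero.1 h4).resolve_left hm0
        apply hz4
        have h6 : z ^ 2 = (z⁻¹) ^ 2 := sub_eq_zero.1 h5
        calc z ^ 4 = z ^ 2 * z ^ 2 := by ring
          _ = z ^ 2 * (z⁻¹) ^ 2 := by rw [← h6]
          _ = 1 := by rw [← mul_pow, mul_inv_cancel₀ hz0, one_pow]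
    · exact ⟨m, by rwa [hm], h⟩
  have hμ0 : μ ≠ 0 := by
    rintro rfl
    exact hμ ⟨0, by rw [Algebra.norm_zero, mul_zero]⟩
  have hσμ0 : σ μ ≠ 0 := fun h => hμ0 (by have := hσ μ; rw [h, map_zero] at this; exact this.symm)
  have hnσ : Algebra.norm F (σ μ) = Algebra.norm F μ := Algebra.norm_eq_of_algEquiv σ μ
  have hnμ : Algebra.norm F μ ≠ 0 := fun h => hμ0 (Algebra.norm_eq_zero_iff.1 h)
  have h1l : 1 + μ / σ μ = (μ + σ μ) / σ μ := by field_simp; ring
  have hdiv : ∀ x : E, Algebra.norm F (x / σ μ) = Algebra.norm F x / Algebra.norm F μ := by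
    intro x
    rw [eq_div_iff hnμ, ← hnσ, ← map_mul, div_mul_cancel₀ _ hσμ0]
  refine ⟨μ / σ μ, ?_, ?_, ?_, ?_⟩
  · rw [map_div₀, hσ]
    field_simp
  · rw [hdiv, div_self hnμ]
  · rw [h1l]
    exact div_ne_zero ht hσμ0
  · rw [h1l, hdiv]
    intro h7
    have hfix : σ (μ + σ μ) = μ + σ μ := by rw [map_add, hσ, add_comm]
    obtain ⟨s, hs⟩ := isSquare_norm_of_fixed σ hσ hσ1 hfix
    obtain ⟨r, hr⟩ := h7
    have hnt : Algebra.norm F (μ + σ μ) ≠ 0 := fun h => ht (Algebra.norm_eq_zero_iff.1 h)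
    have hr0 : r ≠ 0 := by
      rintro rfl
      rw [mul_zero] at hr
      exact (div_ne_zero hnt hnμ) hr
    apply hμ
    refine ⟨s / r, ?_⟩
    rw [div_eq_iff hnμ] at hr
    rw [hs] at hr
    field_simp
    rw [pow_two, pow_two, hr]
    ring

/-- **The commutant of an irreducible group is a field.** -/
theorem exists_field {F : Type u} {W : Type v} [Field F] [AddCommGroup W] [Module F W] [Finite W]
    [Nontrivial W] (P : Subgroup (W ≃ₗ[F] W))
    (hirr : ∀ X : Submodule F W, (∀ g ∈ P, ∀ x ∈ X, g x ∈ X) → X = ⊥ ∨ X = ⊤) :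
    ∃ (E : Type v) (_ : Field E) (_ : Finite E) (_ : Algebra F E) (_ : Module E W) (_ : IsScalarTower F E W),
      (∀ g ∈ P, ∀ (c : E) (x : W), g (c • x) = c • g x) ∧
      (∀ f : W →ₗ[F] W, (∀ g ∈ P, ∀ x, f (g x) = g (f x)) → ∃ c : E, ∀ x, f x = c • x) := by
  classical
  let S : Subalgebra F (Module.End F W) :=
    Subalgebra.centralizer F {f | ∃ g ∈ P, f = (g : W →ₗ[F] W)}
  have hS : ∀ f : Module.End F W, f ∈ S ↔ ∀ g ∈ P, ∀ x, f (g x) = g (f x) := by
    intro f
    rw [Subalgebra.mem_centralizer_iff]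
    constructor
    · intro h g hg x
      exact (LinearMap.congr_fun (h _ ⟨g, hg, rfl⟩) x).symm
    · rintro h _ ⟨g, hg, rfl⟩
      ext x
      exact (h g hg x).symm
  haveI : Finite (Module.End F W) := Finite.of_injective (fun f : Module.End F W => (f : W → W)) DFunLike.coe_injective
  haveI : Finite S := inferInstance
  haveI : Nontrivial S := inferInstance
  haveI : NoZeroDivisors S := by
    refine ⟨?_⟩
    rintro ⟨f, hf⟩ ⟨g, hg⟩ hfg
    by_contra hcon
    push Not at hcon
    have hfg' : ∀ x, f (g x) = 0 := fun x => LinearMap.congr_fun (congrArg Subtype.val hfg) x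
    have hk : LinearMap.ker f = ⊥ := by
      refine (hirr (LinearMap.ker f) ?_).resolve_right ?_
      · intro k hk x hx
        rw [LinearMap.mem_ker] at hx ⊢
        rw [(hS f).1 hf k hk, hx, map_zero]
      · intro h
        apply hcon.1
        refine Subtype.ext ?_
        exact LinearMap.ker_eq_top.1 h
    apply hcon.2
    refine Subtype.ext ?_
    ext x
    have : g x ∈ LinearMap.ker f := hfg' x
    rw [hk, Submodule.mem_bot] at this
    exact this
  haveI : IsDomain S := NoZeroDivisors.to_isDomain S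
  have hfield : IsField S := Finite.isDomain_to_isField S
  refine ⟨S, hfield.toField, inferInstance, inferInstanceAs (Algebra F S), inferInstanceAs (Module S W),
    ?_, ?_, ?_⟩
  · exact ⟨fun a b x => rfl⟩
  · intro g hg c x
    exact ((hS c.1).1 c.2 g hg x).symm
  · intro f hf
    exact ⟨⟨f, (hS f).2 hf⟩, fun x => rfl⟩

theorem isSquare_of_pow {F : Type*} [Field F] {a : F} {n : ℕ} (hn : Odd n) (h : IsSquare (a ^ n)) :
    IsSquare a := by
  obtain ⟨k, rfl⟩ := hn
  obtain ⟨r, hr⟩ := h
  by_cases ha : a = 0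
  · rw [ha]; exact ⟨0, by rw [mul_zero]⟩
  · refine ⟨r / a ^ k, ?_⟩
    field_simp
    rw [pow_two r, ← hr]
    ring

/-- **Isometries centralizing an irreducible `p`-group.** -/
theorem exists_isom {F : Type u} {W : Type v} [Field F] [Finite F] [AddCommGroup W] [Module F W] [Finite W]
    [Nontrivial W] (h2 : (2 : F) ≠ 0) {p : ℕ} (hp : p.Prime) (hp2 : p ≠ 2) (hpF : (p : F) ≠ 0)
    (P : Subgroup (W ≃ₗ[F] W)) (hP : IsPGroup p P) (hP1 : P ≠ ⊥)
    (hirr : ∀ X : Submodule F W, (∀ g ∈ P, ∀ x ∈ X, g x ∈ X) → X = ⊥ ∨ X = ⊤)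
    (b : LinearMap.BilinForm F W) (hs : ∀ x y, b x y = b y x) (hn : ∀ x, (∀ y, b x y = 0) → x = 0)
    (hb : ∀ g ∈ P, ∀ x y, b (g x) (g y) = b x y) :
    ∃ z : W ≃ₗ[F] W, (∀ g ∈ P, z * g = g * z) ∧ (∀ x y, b (z x) (z y) = b x y) ∧
      LinearMap.det (z : W →ₗ[F] W) = 1 ∧ ¬ IsSquare (LinearMap.det (1 + (z : W →ₗ[F] W))) ∧
      Even (finrank F W) := by
  classical
  haveI : Fact p.Prime := ⟨hp⟩
  haveI : Finite (W ≃ₗ[F] W) := Finite.of_injective (fun f : W ≃ₗ[F] W => (f : W → W)) DFunLike.coe_injective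
  haveI : FiniteDimensional F W := Module.Finite.of_finite
  obtain ⟨E, iE1, iE2, iE3, iE4, iE5, hE, hc⟩ := exists_field P hirr
  haveI : FiniteDimensional E W := Module.Finite.of_finite
  haveI : FiniteDimensional F E := Module.Finite.of_finite
  -- the odd degree
  let τ : P →* (W ≃ₗ[E] W) :=
    { toFun := fun g =>
        { toFun := fun x => (g : W ≃ₗ[F] W) x
          map_add' := fun x y => map_add _ x y
          map_smul' := fun c x => hE g g.2 c x
          invFun := fun x => (g : W ≃ₗ[F] W).symm x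
          left_inv := fun x => (g : W ≃ₗ[F] W).symm_apply_apply x
          right_inv := fun x => (g : W ≃ₗ[F] W).apply_symm_apply x }
      map_one' := by ext x; rfl
      map_mul' := fun g h => by ext x; rfl }
  have hτ : ∀ (g : P) (x : W), τ g x = (g : W ≃ₗ[F] W) x := fun g x => rfl
  have hodd : Odd (finrank E W) := by
    haveI : Finite τ.range := Finite.of_surjective τ.rangeRestrict τ.rangeRestrict_surjective
    have hpE : (p : E) ≠ 0 := by
      intro h
      apply hpF
      apply (algebraMap F E).injective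
      rw [map_natCast, map_zero]
      exact h
    refine odd_finrank hp hp2 hpE τ.range (hP.of_surjective τ.rangeRestrict τ.rangeRestrict_surjective) ?_
    intro f hf
    obtain ⟨c, hc'⟩ := hc (f.restrictScalars F) (fun g hg x => hf (τ ⟨g, hg⟩) ⟨_, rfl⟩ x)
    exact ⟨c, hc'⟩
  have hsmul : ∀ c : E, (∀ x : W, c • x = 0) → c = 0 := by
    intro c h
    by_contra hc0
    obtain ⟨x, hx⟩ := exists_ne (0 : W)
    exact hx ((smul_eq_zero.1 (h x)).resolve_left hc0)
  have hbc : ∀ c d : E, (∀ x y, b (c • x) y = b (d • x) y) → c = d := by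
    intro c d h
    refine sub_eq_zero.1 (hsmul _ fun x => hn _ fun y => ?_)
    rw [sub_smul, map_sub, LinearMap.sub_apply, h, sub_self]
  -- the adjoint
  have hB : b.Nondegenerate := by
    refine ⟨fun x hx => hn x hx, fun x hx => hn x fun y => by rw [hs]; exact hx y⟩
  have hex : ∀ c : E, ∃ d : E, ∀ x y, b (d • x) y = b x (c • y) := by
    intro c
    have h1 : ∀ x y, b (b.leftAdjointOfNondegenerate hB (Algebra.lsmul F F W c) x) y = b x (c • y) :=
      fun x y => LinearMap.BilinForm.isAdjointPairLeftAdjointOfNondegenerate b hB (Algebra.lsmul F F W c) x y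
    obtain ⟨d, hd⟩ := hc (b.leftAdjointOfNondegenerate hB (Algebra.lsmul F F W c)) (by
      intro g hg x
      refine sub_eq_zero.1 (hn _ fun y => ?_)
      obtain ⟨y', rfl⟩ := g.surjective y
      rw [map_sub, LinearMap.sub_apply, h1, hb g hg, h1, ← hE g hg, hb g hg, sub_self])
    exact ⟨d, fun x y => by rw [← hd, h1]⟩
  choose s hs' using hex
  have hss : ∀ c, s (s c) = c := by
    intro c
    refine hbc _ _ fun x y => ?_
    rw [hs', hs, hs', hs]
  let σ : E ≃ₐ[F] E :=
    { toFun := s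
      invFun := s
      left_inv := hss
      right_inv := hss
      map_mul' := by
        intro c d
        refine hbc _ _ fun x y => ?_
        rw [hs', mul_comm (s c), mul_smul, mul_smul, hs', hs']
      map_add' := by
        intro c d
        refine hbc _ _ fun x y => ?_
        rw [hs', add_smul, add_smul, map_add, map_add, LinearMap.add_apply, hs', hs']
      commutes' := by
        intro r
        refine hbc _ _ fun x y => ?_
        rw [hs', algebraMap_smul, algebraMap_smul, map_smul, map_smul, LinearMap.smul_apply] }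
  have hσ : ∀ c x y, b (σ c • x) y = b x (c • y) := hs'
  -- a central element
  haveI : Nontrivial P := (Subgroup.nontrivial_iff_ne_bot P).2 hP1
  haveI := hP.center_nontrivial
  obtain ⟨z1, hz1⟩ := exists_ne (1 : Subgroup.center P)
  have hz1c : ∀ g ∈ P, (z1 : P).1 * g = g * (z1 : P).1 := by
    intro g hg
    have := Subgroup.mem_center_iff.1 z1.2 ⟨g, hg⟩
    exact (congrArg Subtype.val this).symm
  obtain ⟨ζ, hζ⟩ := hc ((z1 : P).1 : W →ₗ[F] W) (fun g hg x => by
    have := congrArg (fun f : W ≃ₗ[F] W => f x) (hz1c g hg)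
    exact this)
  have hz1ne : ((z1 : P).1 : W ≃ₗ[F] W) ≠ 1 := fun h => hz1 (Subtype.ext (Subtype.ext h))
  have hζp : ∀ (k : ℕ) (x : W), (((z1 : P).1 : W ≃ₗ[F] W) ^ k) x = ζ ^ k • x := by
    intro k
    induction k with
    | zero => intro x; rw [pow_zero, pow_zero, one_smul]; rfl
    | succ k ih =>
      intro x
      rw [pow_succ, LinearEquiv.mul_apply, ih, pow_succ, mul_smul]
      exact congrArg _ (hζ x)
  have hord1 : Odd (orderOf ((z1 : P).1 : W ≃ₗ[F] W)) := by
    obtain ⟨k, hk⟩ := hP (z1 : P)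
    obtain ⟨j, -, hj⟩ := (Nat.dvd_prime_pow hp).1 (orderOf_dvd_of_pow_eq_one hk)
    rw [Subgroup.orderOf_coe, hj]
    exact (hp.odd_of_ne_two hp2).pow
  have hζ4 : ζ ^ 4 ≠ 1 := by
    intro h
    apply hz1ne
    have h3 : ((z1 : P).1 : W ≃ₗ[F] W) ^ 4 = 1 := by
      ext x
      rw [hζp, h, one_smul]; rfl
    have h4 := orderOf_dvd_of_pow_eq_one h3
    have h5 : orderOf ((z1 : P).1 : W ≃ₗ[F] W) = 1 := by
      have h6 : (orderOf ((z1 : P).1 : W ≃ₗ[F] W)).Coprime 4 :=
        (Nat.coprime_two_right.2 hord1).pow_right 2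
      exact Nat.eq_one_of_dvd_coprimes h6 dvd_rfl h4
    exact orderOf_eq_one_iff.1 h5
  have hζσ : ζ * σ ζ = 1 := by
    refine hbc _ _ fun x y => ?_
    rw [one_smul, mul_comm, mul_smul, hσ, ← hζ, ← hζ]
    exact hb _ (z1 : P).2 x y
  obtain ⟨l, hl1, hl2, hl3, hl4⟩ := exists_norm_one h2 σ hss ζ hζσ hζ4
  have hl0 : l ≠ 0 := fun h => by rw [h, zero_mul] at hl1; exact zero_ne_one hl1
  let z : W ≃ₗ[F] W := (LinearEquiv.smulOfNeZero E W l hl0).restrictScalars F
  have hz : ∀ x, z x = l • x := fun x => rfl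
  have hdet : ∀ c : E, LinearMap.det ((c • (LinearMap.id : W →ₗ[E] W)).restrictScalars F) =
      (Algebra.norm F c) ^ finrank E W := by
    intro c
    rw [LinearMap.det_restrictScalars, LinearMap.det_smul, LinearMap.det_id, mul_one, map_pow]
  refine ⟨z, ?_, ?_, ?_, ?_, ?_⟩
  · intro g hg
    ext x
    show l • g x = g (l • x)
    rw [hE g hg]
  · intro x y
    rw [hz, hz, ← hσ, ← mul_smul, mul_comm, hl1, one_smul]
  · have h7 : (z : W →ₗ[F] W) = ((l • (LinearMap.id : W →ₗ[E] W)).restrictScalars F) := by ext x; rfl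
    rw [h7, hdet, hl2, one_pow]
  · have h7 : 1 + (z : W →ₗ[F] W) = (((1 + l) • (LinearMap.id : W →ₗ[E] W)).restrictScalars F) := by
      ext x
      show x + l • x = (1 + l) • x
      rw [add_smul, one_smul]
    rw [h7, hdet]
    exact fun h => hl4 (isSquare_of_pow hodd h)
  · have h8 := step b hs ⊤ ⊥ (fun a _ h => hn a fun y => h y trivial) (z1 : P).1 (fun _ _ => trivial)
      (fun _ _ => trivial) (hb _ (z1 : P).2) hord1 (by
        intro x
        rw [Submodule.mem_bot]
        constructor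
        · rintro rfl
          exact ⟨trivial, map_zero _⟩
        · rintro ⟨-, h⟩
          have h9 : (ζ - 1) • x = 0 := by
            rw [sub_smul, one_smul, ← hζ]
            exact sub_eq_zero.2 h
          refine (smul_eq_zero.1 h9).resolve_left fun h10 => hζ4 ?_
          rw [sub_eq_zero.1 h10, one_pow])
    rwa [finrank_top, finrank_bot, add_zero] at h8

end Cfsg.Agent.H63.AO.Par
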