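import Cfsg.Agent.H63.AO.Irr

/-!
# Linear maps centralizing an irreducible `p`-group: nonsquare determinants

`exists_nonsq` : an irreducible `p`-group `P` (`p` odd, invertible) over a finite field of odd characteristic is
centralized by a linear map with nonsquare determinant.
-/

set_option autoImplicit false

namespace Cfsg.Agent.H63.AO.Par

open Module

universe u v

theorem exists_nonsq {F : Type u} {W : Type v} [Field F] [Finite F] [AddCommGroup W] [Module F W] [Finite W]
    [Nontrivial W] (h2 : (2 : F) ≠ 0) {p : ℕ} (hp : p.Prime) (hp2 : p ≠ 2) (hpF : (p : F) ≠ 0)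
    (P : Subgroup (W ≃ₗ[F] W)) (hP : IsPGroup p P)
    (hirr : ∀ X : Submodule F W, (∀ g ∈ P, ∀ x ∈ X, g x ∈ X) → X = ⊥ ∨ X = ⊤) :
    ∃ z : W ≃ₗ[F] W, (∀ g ∈ P, z * g = g * z) ∧ ¬ IsSquare (LinearMap.det (z : W →ₗ[F] W)) := by
  classical
  haveI : Finite (W ≃ₗ[F] W) := Finite.of_injective (fun f : W ≃ₗ[F] W => (f : W → W)) DFunLike.coe_injective
  haveI : FiniteDimensional F W := Module.Finite.of_finite
  obtain ⟨E, iE1, iE2, iE3, iE4, iE5, hE, hc⟩ := exists_field P hirr
  haveI : FiniteDimensional E W := Module.Finite.of_finite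
  haveI : FiniteDimensional F E := Module.Finite.of_finite
  -- the odd degree
  let τ : P →* (W ≃ₗ[E] W) :=
    { toFun := fun g =>
        { toFun := fun x => (g : W ≃ₗ[F] W) x
          map_add' := fun x y => map_add _ x y
          map_smul' := fun c x => hE g g.2 c x
          invFun := fun x => (g : W ≃ₗ[F] W).symm x
          left_inv := fun x => (g : W ≃ₗ[F] W).symm_apply_apply x
          right_inv := fun x => (g : W ≃ₗ[F] W).apply_symm_apply x }
      map_one' := by ext x; rfl
      map_mul' := fun g h => by ext x; rfl }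
  have hodd : Odd (finrank E W) := by
    haveI : Finite τ.range := Finite.of_surjective τ.rangeRestrict τ.rangeRestrict_surjective
    have hpE : (p : E) ≠ 0 := by
      intro h
      apply hpF
      apply (algebraMap F E).injective
      rw [map_natCast, map_zero]
      exact h
    refine odd_finrank hp hp2 hpE τ.range (hP.of_surjective τ.rangeRestrict τ.rangeRestrict_surjective) ?_
    intro f hf
    obtain ⟨c, hc'⟩ := hc (f.restrictScalars F) (fun g hg x => hf (τ ⟨g, hg⟩) ⟨_, rfl⟩ x)
    exact ⟨c, hc'⟩
  have hchar : ringChar F ≠ 2 := by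
    intro h
    apply h2
    have := ringChar.Nat.cast_ringChar (R := F)
    rw [h] at this
    exact_mod_cast this
  obtain ⟨a, ha⟩ := FiniteField.exists_nonsquare hchar
  obtain ⟨l, hl⟩ := FiniteField.norm_surjective F E a
  have hl0 : l ≠ 0 := by
    rintro rfl
    rw [Algebra.norm_zero] at hl
    exact ha ⟨0, by rw [← hl, mul_zero]⟩
  let z : W ≃ₗ[F] W := (LinearEquiv.smulOfNeZero E W l hl0).restrictScalars F
  refine ⟨z, ?_, ?_⟩
  · intro g hg
    ext x
    show l • g x = g (l • x)
    rw [hE g hg]
  · have h7 : (z : W →ₗ[F] W) = ((l • (LinearMap.id : W →ₗ[E] W)).restrictScalars F) := by ext x; rfl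
    rw [h7, LinearMap.det_restrictScalars, LinearMap.det_smul, LinearMap.det_id, mul_one, map_pow, hl]
    exact fun h => ha (isSquare_of_pow hodd h)

end Cfsg.Agent.H63.AO.Par
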