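import Cfsg.Agent.H174.AltRank

/-!
# Parity of fixed spaces, and the degree of an absolutely irreducible representation of a `p`-group, `p` odd

* `even_finrank_add_fix` : `P` a `p`-group of isometries of a nondegenerate symmetric form, `p` odd and invertible:
  `dim U` and `dim U^P` have the same parity.
* `odd_finrank` : `P` a `p`-group (`p` odd, invertible) acting on `W` with commutant the scalars: `dim W` is odd.
-/

set_option autoImplicit false

namespace Cfsg.Agent.H63.AO.Par

open Module

variable {E U : Type*} [Field E] [AddCommGroup U] [Module E U]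

/-- The fixed space of a group of linear automorphisms. -/
def fix (H : Subgroup (U ≃ₗ[E] U)) : Submodule E U where
  carrier := {x | ∀ g ∈ H, g x = x}
  add_mem' := fun {a b} ha hb g hg => by rw [map_add, ha g hg, hb g hg]
  zero_mem' := fun g _ => map_zero g
  smul_mem' := fun c x hx g hg => by rw [map_smul, hx g hg]

theorem mem_fix {H : Subgroup (U ≃ₗ[E] U)} {x : U} : x ∈ fix H ↔ ∀ g ∈ H, g x = x := Iff.rfl

/-- Odd order: the fixed vectors of `g ^ 2` are those of `g`. -/
theorem fix_of_sq {g : U ≃ₗ[E] U} (hodd : Odd (orderOf g)) {x : U} (hx : g (g x) = x) : g x = x := by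
  obtain ⟨k, hk⟩ := hodd
  have h1 : ∀ m : ℕ, (g ^ (2 * m)) x = x := by
    intro m
    induction m with
    | zero => rw [mul_zero, pow_zero]; rfl
    | succ m ih =>
      have h2 : g ^ (2 * (m + 1)) = g ^ (2 * m) * (g * g) := by
        rw [mul_add, mul_one, pow_add, pow_two]
      rw [h2, LinearEquiv.mul_apply, LinearEquiv.mul_apply, hx, ih]
  have h2 : g ^ (2 * k) * g = 1 := by rw [← pow_succ, ← hk, pow_orderOf_eq_one]
  have h3 : g * g ^ (2 * k) = 1 := by rw [← pow_succ', ← hk, pow_orderOf_eq_one]
  have h4 : (g * g ^ (2 * k)) x = x := by rw [h3]; rfl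
  rw [LinearEquiv.mul_apply, h1 k] at h4
  exact h4

/-- **The cyclic step.** -/
theorem step [FiniteDimensional E U] (b : LinearMap.BilinForm E U) (hs : ∀ x y, b x y = b y x)
    (A A' : Submodule E U) (hA : ∀ a ∈ A, (∀ c ∈ A, b a c = 0) → a = 0) (g : U ≃ₗ[E] U)
    (hgA : ∀ a ∈ A, g a ∈ A) (hgA' : ∀ a ∈ A, g⁻¹ a ∈ A) (hgi : ∀ x y, b (g x) (g y) = b x y)
    (hodd : Odd (orderOf g)) (h' : ∀ x, x ∈ A' ↔ x ∈ A ∧ g x = x) :
    Even (finrank E A + finrank E A') := by
  classical
  have hgg : ∀ x, g (g⁻¹ x) = x := fun x => by rw [← LinearEquiv.mul_apply, mul_inv_cancel]; rfl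
  -- the skew form
  let β : LinearMap.BilinForm E A :=
    LinearMap.mk₂ E (fun x y : A => b (g x - g⁻¹ x) y)
      (fun x y z => by simp only [Submodule.coe_add, map_add, map_sub, LinearMap.add_apply, LinearMap.sub_apply]; ring)
      (fun c x y => by
        simp only [Submodule.coe_smul, map_smul, map_sub, LinearMap.smul_apply, LinearMap.sub_apply, smul_eq_mul]; ring)
      (fun x y z => by simp only [Submodule.coe_add, map_add])
      (fun c x y => by simp only [Submodule.coe_smul, map_smul])
  have hβ : ∀ x y : A, β x y = b (g x - g⁻¹ x) y := fun x y => rfl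
  have hinv : ∀ x y, b (g⁻¹ x) y = b x (g y) := fun x y => by
    rw [← hgi (g⁻¹ x) y, hgg]
  have hAlt : β.IsAlt := by
    intro x
    rw [hβ, map_sub, LinearMap.sub_apply, hinv, hs (g x) x, sub_self]
  have h1 := Cfsg.Agent.H174.even_finrank_range_of_isAlt β hAlt
  have h2 := LinearMap.finrank_range_add_finrank_ker β
  have h3 : finrank E (LinearMap.ker β) = finrank E A' := by
    have h4 : (LinearMap.ker β).map A.subtype = A' := by
      ext x
      rw [h', Submodule.mem_map]
      constructor
      · rintro ⟨y, hy, rfl⟩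
        refine ⟨y.2, ?_⟩
        have h5 : g (y : U) - g⁻¹ (y : U) = 0 := by
          refine hA _ (A.sub_mem (hgA _ y.2) (hgA' _ y.2)) fun c hc => ?_
          have := hβ y ⟨c, hc⟩
          rw [LinearMap.mem_ker.1 hy] at this
          exact this.symm
        refine fix_of_sq hodd ?_
        show g (g (y : U)) = (y : U)
        rw [sub_eq_zero.1 h5, hgg]
      · rintro ⟨hx, hgx⟩
        refine ⟨⟨x, hx⟩, ?_, rfl⟩
        rw [LinearMap.mem_ker]
        ext y
        have h6 : g⁻¹ x = x := by
          conv_lhs => rw [← hgx]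
          rw [← LinearEquiv.mul_apply, inv_mul_cancel]; rfl
        rw [hβ]
        show b (g x - g⁻¹ x) y = 0
        rw [hgx, h6, sub_self, map_zero, LinearMap.zero_apply]
    rw [← h4]
    exact (LinearEquiv.finrank_eq (Submodule.equivMapOfInjective A.subtype (Submodule.injective_subtype A) _))
  obtain ⟨k, hk⟩ := h1
  refine ⟨k + finrank E A', ?_⟩
  rw [h3] at h2
  omega

/-- The fixed space of a finite group of isometries of order invertible in the field is nondegenerate. -/
theorem fix_nondeg (b : LinearMap.BilinForm E U) (hn : ∀ x, (∀ y, b x y = 0) → x = 0)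
    (H : Subgroup (U ≃ₗ[E] U)) [Finite H] (hc : (Nat.card H : E) ≠ 0)
    (hgi : ∀ g ∈ H, ∀ x y, b (g x) (g y) = b x y) :
    ∀ a ∈ fix H, (∀ c ∈ fix H, b a c = 0) → a = 0 := by
  classical
  intro a ha h0
  refine hn a fun y => ?_
  letI := Fintype.ofFinite H
  have h1 : (∑ g : H, (g : U ≃ₗ[E] U) y) ∈ fix H := by
    rw [mem_fix]
    intro k hk
    rw [map_sum]
    refine Fintype.sum_equiv (Equiv.mulLeft (⟨k, hk⟩ : H)) _ _ fun g => ?_
    rfl
  have h2 := h0 _ h1
  rw [map_sum] at h2
  have h3 : ∀ g : H, b a ((g : U ≃ₗ[E] U) y) = b a y := fun g => by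
    conv_lhs => rw [← mem_fix.1 ha g g.2]
    exact hgi g g.2 a y
  rw [Finset.sum_congr rfl fun g _ => h3 g, Finset.sum_const, Finset.card_univ, nsmul_eq_mul,
    ← Nat.card_eq_fintype_card] at h2
  exact (mul_eq_zero.1 h2).resolve_left hc

/-- **Parity of the fixed space.** -/
theorem even_finrank_add_fix [FiniteDimensional E U] (b : LinearMap.BilinForm E U)
    (hs : ∀ x y, b x y = b y x) (hn : ∀ x, (∀ y, b x y = 0) → x = 0) {p : ℕ} (hp : p.Prime)
    (hp2 : p ≠ 2) (hpE : (p : E) ≠ 0) : ∀ (n : ℕ) (H : Subgroup (U ≃ₗ[E] U)) [Finite H],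
      Nat.card H = n → IsPGroup p H → (∀ g ∈ H, ∀ x y, b (g x) (g y) = b x y) →
      Even (finrank E U + finrank E (fix H)) := by
  classical
  haveI : Fact p.Prime := ⟨hp⟩
  intro n
  induction n using Nat.strong_induction_on with
  | _ n ih =>
    intro H _ hHn hHp hgi
    by_cases hH1 : H = ⊥
    · have h1 : fix H = ⊤ := by
        rw [eq_top_iff]
        intro x _
        rw [mem_fix]
        intro g hg
        rw [hH1, Subgroup.mem_bot] at hg
        rw [hg]; rfl
      rw [h1, finrank_top]
      exact ⟨_, rfl⟩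
    · -- a maximal subgroup
      haveI : Nontrivial H := (Subgroup.nontrivial_iff_ne_bot H).2 hH1
      obtain ⟨K, hK, -⟩ := (eq_top_or_exists_le_coatom (⊥ : Subgroup H)).resolve_left
        (fun h => bot_ne_top h)
      haveI : Group.IsNilpotent H := hHp.isNilpotent
      have hKn : K.Normal := Subgroup.NormalizerCondition.normal_of_coatom K
        (Group.normalizerCondition_of_isNilpotent) hK
      obtain ⟨g, hgK⟩ : ∃ g : H, g ∉ K := by
        by_contra hcon
        push Not at hcon
        exact hK.1 (eq_top_iff.2 fun g _ => hcon g)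
      set N : Subgroup (U ≃ₗ[E] U) := K.map H.subtype with hN
      have hNH : N ≤ H := Subgroup.map_subtype_le K
      haveI : Finite N := Finite.of_injective (Subgroup.inclusion hNH) (Subgroup.inclusion_injective hNH)
      have hNcard : Nat.card N < n := by
        rw [← hHn, hN, Subgroup.card_map_of_injective (Subgroup.subtype_injective H)]
        exact lt_of_le_of_ne (Subgroup.card_le_card_group K)
          fun h => hK.1 (Subgroup.eq_top_of_card_eq K h)
      have hNp : IsPGroup p N := hHp.to_le hNH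
      have hNi : ∀ g ∈ N, ∀ x y, b (g x) (g y) = b x y := fun g hg => hgi g (hNH hg)
      have h1 := ih _ hNcard N rfl hNp hNi
      have hNc : (Nat.card N : E) ≠ 0 := by
        obtain ⟨k, hk⟩ := (IsPGroup.iff_card.1 hNp)
        rw [hk, Nat.cast_pow]
        exact pow_ne_zero _ hpE
      have h2 := fix_nondeg b hn N hNc hNi
      have hconj : ∀ k ∈ N, ∀ x : H, (x : U ≃ₗ[E] U)⁻¹ * k * x ∈ N := by
        rintro k ⟨k', hk', rfl⟩ x
        refine ⟨x⁻¹ * k' * x, ?_, rfl⟩
        have := hKn.conj_mem k' hk' x⁻¹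
        rwa [inv_inv] at this
      have hstab : ∀ x : H, ∀ a ∈ fix N, (x : U ≃ₗ[E] U) a ∈ fix N := by
        intro x a ha
        rw [mem_fix]
        intro k hk
        have h3 := mem_fix.1 ha _ (hconj k hk x)
        have h4 : (x : U ≃ₗ[E] U) (((x : U ≃ₗ[E] U)⁻¹ * k * x) a) = (x : U ≃ₗ[E] U) a := by rw [h3]
        rw [← LinearEquiv.mul_apply, ← mul_assoc, ← mul_assoc, mul_inv_cancel, one_mul,
          LinearEquiv.mul_apply] at h4
        exact h4
      have hgodd : Odd (orderOf (g : U ≃ₗ[E] U)) := by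
        have h5 : ∃ k, orderOf g = p ^ k := by
          obtain ⟨k, hk⟩ := hHp g
          obtain ⟨j, -, hj⟩ := (Nat.dvd_prime_pow hp).1 (orderOf_dvd_of_pow_eq_one hk)
          exact ⟨j, hj⟩
        obtain ⟨k, hk⟩ := h5
        rw [Subgroup.orderOf_coe, hk]
        exact (hp.odd_of_ne_two hp2).pow
      have h6 : ∀ x, x ∈ fix H ↔ x ∈ fix N ∧ (g : U ≃ₗ[E] U) x = x := by
        intro x
        constructor
        · intro hx
          exact ⟨fun k hk => hx k (hNH hk), hx g g.2⟩
        · rintro ⟨hx1, hx2⟩
          -- the stabilizer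
          let T : Subgroup H := (MulAction.stabilizer (U ≃ₗ[E] U) x).comap H.subtype
          have hKT : K ≤ T := by
            intro k hk
            show (k : U ≃ₗ[E] U) • x = x
            exact hx1 k ⟨k, hk, rfl⟩
          have hT : T = ⊤ := by
            rcases hK.le_iff.1 hKT with h | h
            · exact h
            · exfalso
              refine hgK ?_
              rw [← h]
              exact hx2
          rw [mem_fix]
          intro k hk
          have : (⟨k, hk⟩ : H) ∈ T := by rw [hT]; exact Subgroup.mem_top _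
          exact this
      have h7 := step b hs (fix N) (fix H) h2 (g : U ≃ₗ[E] U) (hstab g)
        (fun a ha => hstab g⁻¹ a ha) (hgi g g.2) hgodd h6
      have h8 := h1.add h7
      rw [Nat.even_iff] at h8 ⊢
      omega

/-- **The degree of an absolutely irreducible representation of a `p`-group, `p` odd, is odd.** -/
theorem odd_finrank {E W : Type*} [Field E] [AddCommGroup W] [Module E W] [FiniteDimensional E W]
    [Nontrivial W] {p : ℕ} (hp : p.Prime) (hp2 : p ≠ 2) (hpE : (p : E) ≠ 0)
    (P : Subgroup (W ≃ₗ[E] W)) [Finite P] (hP : IsPGroup p P)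
    (hc : ∀ f : W →ₗ[E] W, (∀ g ∈ P, ∀ x, f (g x) = g (f x)) → ∃ c : E, ∀ x, f x = c • x) :
    Odd (finrank E W) := by
  classical
  -- conjugation on `End W`
  let φ : (W ≃ₗ[E] W) →* (Module.End E W ≃ₗ[E] Module.End E W) :=
    { toFun := fun g => LinearEquiv.conj g
      map_one' := by ext f x; rfl
      map_mul' := fun g h => by ext f x; rfl }
  have hφ : ∀ (g : W ≃ₗ[E] W) (f : Module.End E W) (x : W), (φ g) f x = g (f (g⁻¹ x)) := fun g f x => rfl
  let b : LinearMap.BilinForm E (Module.End E W) :=
    LinearMap.mk₂ E (fun f h => LinearMap.trace E W (f * h))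
      (fun x y z => by rw [add_mul, map_add])
      (fun c x y => by rw [smul_mul_assoc, map_smul])
      (fun x y z => by rw [mul_add, map_add])
      (fun c x y => by rw [mul_smul_comm, map_smul])
  have hb : ∀ f h, b f h = LinearMap.trace E W (f * h) := fun f h => rfl
  have hs : ∀ f h, b f h = b h f := fun f h => by rw [hb, hb, LinearMap.trace_mul_comm]
  have hn : ∀ f, (∀ h, b f h = 0) → f = 0 := by
    intro f hf
    let B := Module.finBasis E W
    have h1 : LinearMap.toMatrix B B f = 0 := by
      refine (Matrix.ext_iff_trace_mul_right).2 fun x => ?_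
      have h2 := hf (Matrix.toLin B B x)
      rw [hb, LinearMap.trace_eq_matrix_trace E B, LinearMap.toMatrix_mul,
        LinearMap.toMatrix_toLin] at h2
      rw [h2, zero_mul, Matrix.trace_zero]
    exact (LinearEquiv.map_eq_zero_iff (LinearMap.toMatrix B B)).1 h1
  set H : Subgroup (Module.End E W ≃ₗ[E] Module.End E W) := P.map φ with hH
  haveI : Finite H := Set.Finite.subset (Set.toFinite _) (by rintro _ ⟨x, hx, rfl⟩; exact ⟨x, hx, rfl⟩ : (H : Set _) ⊆ φ '' P)
  have hHp : IsPGroup p H := hP.map φ
  have hHi : ∀ g ∈ H, ∀ x y, b (g x) (g y) = b x y := by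
    rintro _ ⟨g, -, rfl⟩ x y
    rw [hb, hb]
    have h3 : (φ g) x * (φ g) y = LinearEquiv.conj g (x * y) := (LinearEquiv.conj_comp g y x).symm
    rw [h3, LinearMap.trace_conj']
  have h4 := even_finrank_add_fix b hs hn hp hp2 hpE _ H rfl hHp hHi
  have h5 : finrank E (fix H) = 1 := by
    refine finrank_eq_one_iff'.2 ⟨⟨1, ?_⟩, ?_, ?_⟩
    · rw [mem_fix]
      rintro _ ⟨g, -, rfl⟩
      ext x
      rw [hφ, Module.End.one_apply, Module.End.one_apply, ← LinearEquiv.mul_apply, mul_inv_cancel]
      rfl
    · intro h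
      exact one_ne_zero (congrArg Subtype.val h)
    · rintro ⟨f, hf⟩
      have h6 : ∀ g ∈ P, ∀ x, f (g x) = g (f x) := by
        intro g hg x
        have h7 := mem_fix.1 hf (φ g) ⟨g, hg, rfl⟩
        have h8 := LinearMap.congr_fun h7 (g x)
        rw [hφ, ← LinearEquiv.mul_apply, inv_mul_cancel] at h8
        exact h8.symm
      obtain ⟨c, hc'⟩ := hc f h6
      refine ⟨c, Subtype.ext ?_⟩
      ext x
      exact (hc' x).symm
  rw [h5, Module.finrank_linearMap] at h4
  by_contra hodd
  rw [Nat.not_odd_iff_even] at hodd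
  have h9 : Even (finrank E W * finrank E W) := hodd.mul_right _
  rw [Nat.even_iff] at h4 h9
  omega

end Cfsg.Agent.H63.AO.Par
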